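import Mathlib
import Cfsg.Agent.H737.RootW
set_option linter.all false

-- part: H737/RootDeep
section
/-!
# Root involutions: deep members of `W_d`

A member `v` of `W_d` outside the class `E_d` is *deep* if all its commutators with members of `W_d`
lie in `E_d ∪ {1}`.  If `e` is opposite to `v` but not to `d`, then `a ↦ [a, e]` maps `E(d)` onto
`E(z)` for some `z`, `e` is deep for `z`, and `[E(z), v] = E(d)`.
-/

set_option autoImplicit false

namespace Cfsg.Agent.H737

open Cfsg

variable {G : Type*} [Group G] {D : Set G}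

/-- `v ∈ W_d` lies outside the class of `d` and all its commutators with `W_d` lie in that class. -/
def Deep (D : Set G) (d v : G) : Prop :=
  v ∈ WSet D d ∧ ¬ SimR D v d ∧
    ∀ x ∈ WSet D d, ¬ Commute v x → SimR D (x * (v * x * v)) d

theorem commute_conj_iff' (g x y : G) : Commute (g * x * g⁻¹) (g * y * g⁻¹) ↔ Commute x y := by
  constructor
  · intro hh
    have h1 : g * x * g⁻¹ * (g * y * g⁻¹) = g * y * g⁻¹ * (g * x * g⁻¹) := hh
    show x * y = y * x
    calc x * y = g⁻¹ * (g * x * g⁻¹ * (g * y * g⁻¹)) * g := by group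
      _ = g⁻¹ * (g * y * g⁻¹ * (g * x * g⁻¹)) * g := by rw [h1]
      _ = y * x := by group
  · intro hh
    show g * x * g⁻¹ * (g * y * g⁻¹) = g * y * g⁻¹ * (g * x * g⁻¹)
    calc g * x * g⁻¹ * (g * y * g⁻¹) = g * (x * y) * g⁻¹ := by group
      _ = g * (y * x) * g⁻¹ := by rw [hh.eq]
      _ = _ := by group

theorem simR_conj_iff (h : IsRootInvolutionSet D) (g x y : G) :
    SimR D (g * x * g⁻¹) (g * y * g⁻¹) ↔ SimR D x y := by
  constructor
  · intro hh
    have h1 := hh.conj h g⁻¹
    have e1 : g⁻¹ * (g * x * g⁻¹) * g⁻¹⁻¹ = x := by group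
    have e2 : g⁻¹ * (g * y * g⁻¹) * g⁻¹⁻¹ = y := by group
    rwa [e1, e2] at h1
  · intro hh
    exact hh.conj h g

theorem deep_conj (h : IsRootInvolutionSet D) {d v : G} (hv : Deep D d v) (g : G) :
    Deep D (g * d * g⁻¹) (g * v * g⁻¹) := by
  refine ⟨WSet_conj h hv.1 g, ?_, ?_⟩
  · intro hh
    exact hv.2.1 ((simR_conj_iff h g v d).1 hh)
  · intro x hx hn
    have h1 : g⁻¹ * x * g⁻¹⁻¹ ∈ WSet D d := by
      have h2 := WSet_conj h hx g⁻¹
      have e2 : g⁻¹ * (g * d * g⁻¹) * g⁻¹⁻¹ = d := by group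
      rwa [e2] at h2
    rw [inv_inv] at h1
    have e1 : x = g * (g⁻¹ * x * g) * g⁻¹ := by group
    have h3 : ¬ Commute v (g⁻¹ * x * g) := by
      intro hh
      apply hn
      rw [e1]
      exact (commute_conj_iff' g _ _).2 hh
    have h4 := hv.2.2 _ h1 h3
    have e3 : x * (g * v * g⁻¹ * x * (g * v * g⁻¹)) =
        g * ((g⁻¹ * x * g) * (v * (g⁻¹ * x * g) * v)) * g⁻¹ := by group
    rw [e3]
    exact (simR_conj_iff h g _ _).2 h4

/-- Opposite involutions `a`, `b` are conjugate by a power of `ab`. -/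
theorem Opp.exists_conj_pow {a b : G} (ha : a * a = 1) (hb : b * b = 1) (hab : Opp a b) :
    ∃ m : ℕ, (a * b) ^ m * a * ((a * b) ^ m)⁻¹ = b := by
  obtain ⟨m, hm⟩ := hab.2
  set ρ : G := a * b with hρ
  refine ⟨m, ?_⟩
  have hinv : a * ρ * a⁻¹ = ρ⁻¹ := by
    rw [hρ, mul_inv_rev, inv_of_sq hb, inv_of_sq ha, ← mul_assoc, ha, one_mul]
  have h1 : a * (ρ ^ m)⁻¹ * a⁻¹ = ρ ^ m := by
    rw [← inv_pow, ← conj_pow]
    rw [show a * ρ⁻¹ * a⁻¹ = (a * ρ * a⁻¹)⁻¹ by group, hinv, inv_inv]
  have h2 : a * (ρ ^ m)⁻¹ = ρ ^ m * a := by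
    calc a * (ρ ^ m)⁻¹ = (a * (ρ ^ m)⁻¹ * a⁻¹) * a := by group
      _ = ρ ^ m * a := by rw [h1]
  have h3 : ρ ^ (2 * m + 1) = 1 := by rw [← hm, pow_orderOf_eq_one]
  calc ρ ^ m * a * (ρ ^ m)⁻¹ = ρ ^ m * (a * (ρ ^ m)⁻¹) := by group
    _ = ρ ^ m * (ρ ^ m * a) := by rw [h2]
    _ = (ρ ^ (2 * m + 1)) * ρ⁻¹ * a := by rw [pow_succ, two_mul, pow_add]; group
    _ = b := by
      rw [h3, hρ, mul_inv_rev, inv_of_sq ha, inv_of_sq hb, one_mul, mul_assoc, ha, mul_one]

theorem deep_pair [Finite G] (h : IsRootInvolutionSet D) (hc : IsConnectedSet (OddAdj D) D)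
    {d v e : G} (hd : d ∈ D) {ES : Subgroup G}
    (hES : ∀ x, x ∈ ES ↔ x = 1 ∨ (x ∈ D ∧ SimR D x d)) (hdv : Deep D d v) (he : e ∈ D)
    (hev : Opp e v) (hed : ¬ Opp e d) :
    ∃ z ∈ D, z ∈ WSet D d ∧ Deep D z e ∧
      (∀ z' ∈ D, SimR D z' z → ∃ a ∈ D, SimR D a d ∧ z' = a * (e * a * e)) ∧
      (∀ a ∈ D, SimR D a d → SimR D (a * (e * a * e)) z) ∧
      (∀ a ∈ D, SimR D a d → ∃ z' ∈ D, SimR D z' z ∧ a = z' * (v * z' * v)) := by
  classical
  have hvW := hdv.1
  have hvD := hvW.1
  have hee := sq_of_mem h he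
  have hvv := sq_of_mem h hvD
  have key := fun (a : G) (ha : a ∈ D) (hs : SimR D a d) => comm_class h hc hd hvW he hev hed ha hs
  set f : G → G := fun a => a * (e * a * e) with hf
  -- basic facts
  have hf1 : f 1 = 1 := by simp only [hf]; rw [one_mul, mul_one, hee]
  have hfW : ∀ a ∈ ES, a = 1 ∨ f a ∈ WSet D d := by
    intro a ha
    rcases (hES a).1 ha with h1 | h1
    · exact Or.inl h1
    · exact Or.inr (key a h1.1 h1.2).2.2.2.1
  have hWE : ∀ w ∈ WSet D d, ∀ a ∈ ES, Commute w a := by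
    intro w hw a ha
    rcases (hES a).1 ha with h1 | h1
    · rw [h1]; exact Commute.one_right w
    · exact WSet_commute_sim h hc hd h1.1 h1.2 hw
  have hEE : ∀ a ∈ ES, ∀ b ∈ ES, Commute a b := by
    intro a ha b hb
    rcases (hES a).1 ha with h1 | h1
    · rw [h1]; exact Commute.one_left b
    · exact hWE a (sim_mem_WSet h hc hd h1.1 h1.2) b hb
  have hfE : ∀ a ∈ ES, ∀ b ∈ ES, Commute (f a) b := by
    intro a ha b hb
    rcases hfW a ha with h1 | h1
    · rw [h1, hf1]; exact Commute.one_left b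
    · exact hWE _ h1 b hb
  have hsq : ∀ a ∈ ES, a * a = 1 := by
    intro a ha
    rcases (hES a).1 ha with h1 | h1
    · rw [h1, mul_one]
    · exact sq_of_mem h h1.1
  have heae : ∀ a ∈ ES, e * a * e = a * f a := by
    intro a ha
    simp only [hf]
    rw [← mul_assoc, hsq a ha, one_mul]
  have hfmul : ∀ a ∈ ES, ∀ b ∈ ES, f (a * b) = f a * f b := by
    intro a ha b hb
    have h1 : Commute (e * a * e) b := by
      rw [heae a ha]
      exact (hEE a ha b hb).mul_left (hfE a ha b hb)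
    simp only [hf]
    calc a * b * (e * (a * b) * e) = a * b * (e * a * 1 * b * e) := by group
      _ = a * b * (e * a * (e * e) * b * e) := by rw [hee]
      _ = a * (b * (e * a * e)) * (e * b * e) := by group
      _ = a * ((e * a * e) * b) * (e * b * e) := by rw [h1.eq]
      _ = _ := by group
  have hfe : ∀ a ∈ ES, Commute (f a) e := by
    intro a ha
    rcases (hES a).1 ha with h1 | h1
    · rw [h1, hf1]; exact Commute.one_left e
    · exact (key a h1.1 h1.2).2.2.2.2.1
  have hfne : ∀ a ∈ ES, f a = 1 → a = 1 := by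
    intro a ha h1
    rcases (hES a).1 ha with h2 | h2
    · exact h2
    · have h3 := (key a h2.1 h2.2).2.1
      exact absurd h1 (ne_one_of_mem h h3)
  have hff : ∀ a ∈ ES, ∀ b ∈ ES, Commute (f a) (f b) := by
    intro a ha b hb
    show f a * f b = f b * f a
    rw [← hfmul a ha b hb, ← hfmul b hb a ha, (hEE a ha b hb).eq]
  have hfsq : ∀ a ∈ ES, f a * f a = 1 := by
    intro a ha
    rw [← hfmul a ha a ha, hsq a ha, hf1]
  -- the second map
  set s : G → G := fun a => f a * (v * f a * v) with hs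
  have hs1 : s 1 = 1 := by simp only [hs, hf1]; rw [one_mul, mul_one, hvv]
  have hsES : ∀ a ∈ ES, s a ∈ ES ∧ (s a = 1 → a = 1) := by
    intro a ha
    rcases (hES a).1 ha with h1 | h1
    · rw [h1, hs1]; exact ⟨one_mem _, fun _ => rfl⟩
    · have h2 := key a h1.1 h1.2
      have h3 : ¬ Commute (f a) v := h2.2.2.2.2.2 v hvD hev
      have h4 := hdv.2.2 (f a) h2.2.2.2.1 (fun hh => h3 hh.symm)
      have h5 : s a ∈ D := (WSet_comm h h2.2.2.2.1 hvW h3).1
      refine ⟨(hES _).2 (Or.inr ⟨h5, h4⟩), fun h6 => ?_⟩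
      exact absurd h6 (ne_one_of_mem h h5)
  have hvfv : ∀ a ∈ ES, v * f a * v = f a * s a := by
    intro a ha
    show v * f a * v = f a * (f a * (v * f a * v))
    rw [← mul_assoc (f a) (f a), hfsq a ha, one_mul]
  have hsmul : ∀ a ∈ ES, ∀ b ∈ ES, s (a * b) = s a * s b := by
    intro a ha b hb
    have h1 : Commute (v * f a * v) (f b) := by
      rw [hvfv a ha]
      exact (hff a ha b hb).mul_left (hfE b hb (s a) (hsES a ha).1).symm
    simp only [hs, hfmul a ha b hb]
    calc f a * f b * (v * (f a * f b) * v) = f a * f b * (v * f a * 1 * f b * v) := by group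
      _ = f a * f b * (v * f a * (v * v) * f b * v) := by rw [hvv]
      _ = f a * (f b * (v * f a * v)) * (v * f b * v) := by group
      _ = f a * ((v * f a * v) * f b) * (v * f b * v) := by rw [h1.eq]
      _ = _ := by group
  have hsinj : ∀ a ∈ ES, ∀ b ∈ ES, s a = s b → a = b := by
    intro a ha b hb hab
    have h1 : s (a * b) = 1 := by
      rw [hsmul a ha b hb, hab, ← hsmul b hb b hb, hsq b hb, hs1]
    have h2 := (hsES _ (mul_mem ha hb)).2 h1
    calc a = a * (b * b) := by rw [hsq b hb, mul_one]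
      _ = (a * b) * b := by group
      _ = b := by rw [h2, one_mul]
  have hssurj : ∀ a ∈ ES, ∃ b ∈ ES, s b = a := by
    let S' : ↥ES → ↥ES := fun a => ⟨s a, (hsES a a.2).1⟩
    have hinj : Function.Injective S' := by
      intro a b hab
      exact Subtype.ext (hsinj a a.2 b b.2 (congrArg Subtype.val hab))
    have hsur := Finite.surjective_of_injective hinj
    intro a ha
    obtain ⟨b, hb⟩ := hsur ⟨a, ha⟩
    exact ⟨b, b.2, congrArg Subtype.val hb⟩
  -- the module
  set inM : G → Prop := fun m => ∃ a ∈ ES, ∃ b ∈ ES, m = a * f b with hinM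
  have hMe : ∀ m, inM m → inM (e * m * e) := by
    rintro m ⟨a, ha, b, hb, rfl⟩
    refine ⟨a, ha, a * b, mul_mem ha hb, ?_⟩
    calc e * (a * f b) * e = e * a * (f b * e) := by group
      _ = e * a * (e * f b) := by rw [(hfe b hb).eq]
      _ = (e * a * e) * f b := by group
      _ = a * f a * f b := by rw [heae a ha]
      _ = a * f (a * b) := by rw [hfmul a ha b hb, mul_assoc]
  have hMv : ∀ m, inM m → inM (v * m * v) := by
    rintro m ⟨a, ha, b, hb, rfl⟩
    refine ⟨a * s b, mul_mem ha (hsES b hb).1, b, hb, ?_⟩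
    calc v * (a * f b) * v = (v * a) * f b * v := by group
      _ = (a * v) * f b * v := by rw [(hWE v hvW a ha).eq]
      _ = a * (v * f b * v) := by group
      _ = a * (f b * s b) := by rw [hvfv b hb]
      _ = a * (s b * f b) := by rw [(hfE b hb (s b) (hsES b hb).1).eq]
      _ = a * s b * f b := (mul_assoc _ _ _).symm
  obtain ⟨m, hm⟩ := Opp.exists_conj_pow hvv hee (Opp.symm' h he hvD hev)
  set g : G := (v * e) ^ m with hg
  have hMg : ∀ n : ℕ, ∀ x, inM x → inM ((v * e) ^ n * x * ((v * e) ^ n)⁻¹) := by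
    intro n
    induction n with
    | zero => intro x hx; simpa using hx
    | succ n ih =>
      intro x hx
      have h1 := hMv _ (hMe _ (ih x hx))
      have e1 : (v * e) ^ (n + 1) * x * ((v * e) ^ (n + 1))⁻¹ =
          v * (e * ((v * e) ^ n * x * ((v * e) ^ n)⁻¹) * e) * v := by
        rw [pow_succ' (v * e) n, mul_inv_rev, mul_inv_rev, inv_of_sq hee, inv_of_sq hvv]
        group
      rw [e1]; exact h1
  -- conjugation by `g` maps `E(d)` to the image of `f`
  have hgf : ∀ a ∈ ES, ∃ b ∈ ES, g * a * g⁻¹ = f b := by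
    intro a ha
    have h1 : inM a := ⟨a, ha, 1, one_mem _, by rw [hf1, mul_one]⟩
    obtain ⟨a', ha', b', hb', hab⟩ := hMg m a h1
    rw [← hg] at hab
    have h2 : Commute (g * a * g⁻¹) e := by
      rw [← hm]
      exact (commute_conj_iff' g a v).2 (hWE v hvW a ha).symm
    have h3 : e * (a' * f b') * e = a' * f b' := by
      rw [← hab, ← h2.eq, mul_assoc, hee, mul_one]
    have h4 : e * (a' * f b') * e = a' * f a' * f b' := by
      calc e * (a' * f b') * e = e * a' * (f b' * e) := by group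
        _ = e * a' * (e * f b') := by rw [(hfe b' hb').eq]
        _ = (e * a' * e) * f b' := by group
        _ = a' * f a' * f b' := by rw [heae a' ha']
    have h5 : f a' = 1 := by
      rw [h3] at h4
      have : a' * 1 = a' * f a' := by
        rw [mul_one]; exact mul_right_cancel h4
      exact (mul_left_cancel this).symm
    have h6 := hfne a' ha' h5
    refine ⟨b', hb', ?_⟩
    rw [hab, h6, one_mul]
  have hdES : d ∈ ES := (hES d).2 (Or.inr ⟨hd, SimR.refl D d⟩)
  have hgfsurj : ∀ b ∈ ES, ∃ a ∈ ES, g * a * g⁻¹ = f b := by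
    choose t ht1 ht2 using hgf
    let T : ↥ES → ↥ES := fun a => ⟨t a a.2, ht1 a a.2⟩
    have hinj : Function.Injective T := by
      intro a b hab
      have h1 : t a a.2 = t b b.2 := congrArg Subtype.val hab
      have h2 := ht2 a a.2
      rw [h1, ← ht2 b b.2] at h2
      exact Subtype.ext (by simpa using h2)
    have hsur := Finite.surjective_of_injective hinj
    intro b hb
    obtain ⟨a, ha⟩ := hsur ⟨b, hb⟩
    refine ⟨a, a.2, ?_⟩
    rw [ht2 a a.2]
    exact congrArg f (congrArg Subtype.val ha)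
  -- conclusion
  have hzD : g * d * g⁻¹ ∈ D := h.conj_mem d hd g
  have hP2 : ∀ a ∈ D, SimR D a d → SimR D (a * (e * a * e)) (g * d * g⁻¹) := by
    intro a ha hsa
    obtain ⟨b, hb, hgb⟩ := hgfsurj a ((hES a).2 (Or.inr ⟨ha, hsa⟩))
    have hb1 : b ≠ 1 := by
      rintro rfl
      have h1 : f a = 1 := by rw [← hgb]; group
      exact ne_one_of_mem h (key a ha hsa).2.1 h1
    have hb2 : b ∈ D ∧ SimR D b d := ((hES b).1 hb).resolve_left hb1
    show SimR D (f a) (g * d * g⁻¹)
    rw [← hgb]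
    exact hb2.2.conj h g
  refine ⟨g * d * g⁻¹, hzD, ?_, ?_, ?_, hP2, ?_⟩
  · obtain ⟨b, hb, hgb⟩ := hgf d hdES
    rw [hgb]
    rcases hfW b hb with h1 | h1
    · exfalso
      rw [h1, hf1] at hgb
      rw [hgb] at hzD
      exact ne_one_of_mem h hzD rfl
    · exact h1
  · have h1 := deep_conj h hdv g
    rwa [hm] at h1
  · intro z' hz' hsz
    have h1 : g⁻¹ * z' * g ∈ D := by
      have := h.conj_mem z' hz' g⁻¹
      rwa [inv_inv] at this
    have e1 : z' = g * (g⁻¹ * z' * g) * g⁻¹ := by group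
    have h2 : SimR D (g⁻¹ * z' * g) d := by
      rw [e1] at hsz
      exact (simR_conj_iff h g _ _).1 hsz
    obtain ⟨b, hb, hgb⟩ := hgf _ ((hES _).2 (Or.inr ⟨h1, h2⟩))
    rw [← e1] at hgb
    have hb1 : b ≠ 1 := by
      rintro rfl
      rw [hf1] at hgb
      rw [hgb] at hz'
      exact ne_one_of_mem h hz' rfl
    have hb2 : b ∈ D ∧ SimR D b d := ((hES b).1 hb).resolve_left hb1
    exact ⟨b, hb2.1, hb2.2, hgb⟩
  · intro a ha hsa
    obtain ⟨b, hb, hsb⟩ := hssurj a ((hES a).2 (Or.inr ⟨ha, hsa⟩))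
    have hb1 : b ≠ 1 := by
      rintro rfl
      rw [hs1] at hsb
      rw [← hsb] at ha
      exact ne_one_of_mem h ha rfl
    have hb2 : b ∈ D ∧ SimR D b d := ((hES b).1 hb).resolve_left hb1
    exact ⟨f b, (key b hb2.1 hb2.2).2.1, hP2 b hb2.1 hb2.2, hsb.symm⟩

end Cfsg.Agent.H737
end

-- part: H737/RootStruct
section
/-!
# Root involutions: the commutators of `W_d` lie in `E(d)`

`all_deep`: if every class `E_d ∪ {1}` is a subgroup, then the commutators of the members of `W_d`
lie in `E_d ∪ {1}`.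
-/

set_option autoImplicit false

namespace Cfsg.Agent.H737

open Cfsg
open scoped commutatorElement

variable {G : Type*} [Group G] {D : Set G}

/-- The commutators of `v` with `W_d` have all their commutators with `W_d` in the class of `d`. -/
def Deep2 (D : Set G) (d v : G) : Prop :=
  v ∈ WSet D d ∧ ∀ y ∈ WSet D d, ¬ Commute v y → ∀ x ∈ WSet D d,
    ¬ Commute (y * (v * y * v)) x → SimR D (x * ((y * (v * y * v)) * x * (y * (v * y * v)))) d

theorem deep2_conj (h : IsRootInvolutionSet D) {d v : G} (hv : Deep2 D d v) (g : G) :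
    Deep2 D (g * d * g⁻¹) (g * v * g⁻¹) := by
  have hback : ∀ x ∈ WSet D (g * d * g⁻¹), g⁻¹ * x * g ∈ WSet D d := by
    intro x hx
    have h2 := WSet_conj h hx g⁻¹
    have e2 : g⁻¹ * (g * d * g⁻¹) * g⁻¹⁻¹ = d := by group
    rwa [e2, inv_inv] at h2
  refine ⟨WSet_conj h hv.1 g, ?_⟩
  intro y hy hn x hx hnx
  have e1 : y = g * (g⁻¹ * y * g) * g⁻¹ := by group
  have e2 : x = g * (g⁻¹ * x * g) * g⁻¹ := by group
  have h3 : ¬ Commute v (g⁻¹ * y * g) := by
    intro hh
    apply hn
    rw [e1]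
    exact (commute_conj_iff' g _ _).2 hh
  have e3 : y * (g * v * g⁻¹ * y * (g * v * g⁻¹)) =
      g * ((g⁻¹ * y * g) * (v * (g⁻¹ * y * g) * v)) * g⁻¹ := by group
  have h4 : ¬ Commute ((g⁻¹ * y * g) * (v * (g⁻¹ * y * g) * v)) (g⁻¹ * x * g) := by
    intro hh
    apply hnx
    rw [e3, e2]
    have := (commute_conj_iff' g _ _).2 hh
    exact this
  have h5 := hv.2 _ (hback y hy) h3 _ (hback x hx) h4
  rw [e3]
  have h6 := (simR_conj_iff h g _ _).2 h5
  have e4 : g * ((g⁻¹ * x * g) * ((g⁻¹ * y * g) * (v * (g⁻¹ * y * g) * v) * (g⁻¹ * x * g) *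
      ((g⁻¹ * y * g) * (v * (g⁻¹ * y * g) * v)))) * g⁻¹ =
      x * (g * ((g⁻¹ * y * g) * (v * (g⁻¹ * y * g) * v)) * g⁻¹ * x *
        (g * ((g⁻¹ * y * g) * (v * (g⁻¹ * y * g) * v)) * g⁻¹)) := by group
  rwa [e4] at h6

/-- A member `x` of `W_d` opposite to `e`, with a commutator outside the class of `d`, has no
product in `D` with a member of the class of `d`. -/
theorem bad_mem [Finite G] (h : IsRootInvolutionSet D) (hc : IsConnectedSet (OddAdj D) D)
    (hES : ∀ d ∈ D, ∃ ES : Subgroup G, ∀ x, x ∈ ES ↔ x = 1 ∨ (x ∈ D ∧ SimR D x d))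
    {d z e x : G} (hd : d ∈ D) (he : e ∈ D) (hzW : z ∈ WSet D d) (hze : Deep D z e)
    (hP1 : ∀ z' ∈ D, SimR D z' z → ∃ a ∈ D, SimR D a d ∧ z' = a * (e * a * e))
    (hP2 : ∀ a ∈ D, SimR D a d → SimR D (a * (e * a * e)) z)
    (hW : ∀ a ∈ D, SimR D a d → a * (e * a * e) ∈ WSet D d)
    (hx : x ∈ WSet D d) (hex : Opp e x)
    (hxn : ∃ y ∈ WSet D d, ¬ Commute x y ∧ ¬ SimR D (y * (x * y * x)) d)
    {a : G} (ha : a ∈ D) (hsa : SimR D a d) : x * a ∉ D := by
  intro hxa
  have hzD := hzW.1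
  have hxD := hx.1
  have hxx := sq_of_mem h hxD
  have haa := sq_of_mem h ha
  have hee := sq_of_mem h he
  have hxe : Opp x e := Opp.symm' h he hxD hex
  obtain ⟨ES, hES'⟩ := hES z hzD
  obtain ⟨b, hbD, _, hbx, P1, -, P3⟩ :=
    deep_pair h hc hzD hES' hze hxD hxe (WSet_not_opp hx hzW)
  have hz'W := hW a ha hsa
  obtain ⟨b', hb'D, hsb', hz'b'⟩ := P3 _ hz'W.1 (hP2 a ha hsa)
  obtain ⟨z'', hz''D, hsz'', hb'z''⟩ := P1 b' hb'D hsb'
  have hz''W : z'' ∈ WSet D d := by
    obtain ⟨a', ha', hsa', hza'⟩ := hP1 z'' hz''D hsz''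
    rw [hza']; exact hW a' ha' hsa'
  have hb'a : b' ≠ a := by
    rintro rfl
    obtain ⟨y, hy, hny, hnS⟩ := hxn
    have h1 : SimR D b d := hsb'.symm.trans hsa
    exact hnS ((hbx.2.2 y (WSet_of_sim h hc hbD hd h1 hy) hny).trans h1)
  have hbb := sq_of_mem h hb'D
  have hzz := sq_of_mem h hz''D
  have hnz : ¬ Commute z'' x := by
    intro hcom
    apply ne_one_of_mem h hb'D
    rw [hb'z'', ← hcom.eq, mul_assoc, hxx, mul_one, hzz]
  have hb'W : b' ∈ WSet D d := by rw [hb'z'']; exact WSet_comm h hz''W hx hnz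
  have c1 : Commute b' a := WSet_commute_sim h hc hd ha hsa hb'W
  have c2 : Commute x a := WSet_commute_sim h hc hd ha hsa hx
  have c3 : Commute x b' := WSet_commute_sim h hc hbD hb'D hsb' hbx.1
  have c4 : Commute (a * (e * a * e)) a := WSet_commute_sim h hc hd ha hsa hz'W
  have c5 : Commute z'' a := WSet_commute_sim h hc hd ha hsa hz''W
  have ht1 : b' * a ≠ 1 := by
    intro h1
    apply hb'a
    calc b' = (b' * a) * a := by rw [mul_assoc, haa, mul_one]
      _ = a := by rw [h1, one_mul]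
  have htt : (b' * a) * (b' * a) = 1 := by
    calc (b' * a) * (b' * a) = b' * (a * b') * a := by group
      _ = b' * (b' * a) * a := by rw [← c1.eq]
      _ = (b' * b') * (a * a) := by group
      _ = 1 := by rw [hbb, haa, one_mul]
  -- `t = b' a` commutes with `e`
  have e1 : e * b' * e = b' * (a * (e * a * e)) := by
    rw [hz'b', ← mul_assoc b' b', hbb, one_mul]
  have e2 : e * a * e = (a * (e * a * e)) * a := by
    rw [c4.eq, ← mul_assoc a a, haa, one_mul]
  have hz's : (a * (e * a * e)) * (a * (e * a * e)) = 1 := sq_of_mem h hz'W.1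
  have c6 : Commute (b' * a) e := by
    have e3 : e * (b' * a) * e = b' * a := by
      calc e * (b' * a) * e = e * b' * 1 * a * e := by group
        _ = e * b' * (e * e) * a * e := by rw [hee]
        _ = (e * b' * e) * (e * a * e) := by group
        _ = (b' * (a * (e * a * e))) * ((a * (e * a * e)) * a) := by rw [e1, ← e2]
        _ = b' * ((a * (e * a * e)) * (a * (e * a * e))) * a := by group
        _ = b' * a := by rw [hz's, mul_one]
    show b' * a * e = e * (b' * a)
    calc b' * a * e = (e * (b' * a) * e) * e := by rw [e3]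
      _ = e * (b' * a) * (e * e) := by group
      _ = e * (b' * a) := by rw [hee, mul_one]
  have c7 : Commute (b' * a) x := (c3.symm).mul_left c2.symm
  have hmem : (b' * a) * x ∈ D := by
    have h1 := conj_mem' h hxa hz''D
    have e4 : z'' * (x * a) * z'' = (b' * a) * x := by
      calc z'' * (x * a) * z'' = z'' * x * (a * z'') := by group
        _ = z'' * x * (z'' * a) := by rw [c5.eq]
        _ = z'' * x * z'' * a := by group
        _ = z'' * (x * z'' * (x * x)) * a := by rw [hxx]; group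
        _ = (z'' * (x * z'' * x)) * x * a := by group
        _ = b' * x * a := by rw [← hb'z'']
        _ = b' * (x * a) := by group
        _ = b' * (a * x) := by rw [c2.eq]
        _ = (b' * a) * x := by group
    rwa [e4] at h1
  refine not_odd_mul_two h hmem he (x := x * e) (t := b' * a) hxe.2 ?_ htt ht1 ?_ ?_
  · intro h1
    apply hxe.1
    calc x = (x * e) * e := by rw [mul_assoc, hee, mul_one]
      _ = e := by rw [h1, one_mul]
  · exact (c7.symm).mul_left c6.symm
  · calc (b' * a) * x * e = x * (b' * a) * e := by rw [c7.eq]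
      _ = x * ((b' * a) * e) := by group
      _ = x * (e * (b' * a)) := by rw [c6.eq]
      _ = x * e * (b' * a) := by group

/-- The commutator identity used in `all_deep` (a form of the Hall–Witt identity). -/
theorem hall_witt_inv {x w z v q δ : G} (hx : x * x = 1) (hw : w * w = 1) (hz : z * z = 1)
    (hv : v * v = 1)
    (v1 : v = x * (w * x * w)) (v2 : v = w * (x * w * x)) (q1 : q = w * (z * w * z))
    (δ1 : δ = v * (z * v * z)) (hqx : q * x = x * q) (hδx : δ * x = x * δ)
    (hvx : v * x = x * v) (hvw : v * w = w * v) (hδv : δ * v = v * δ) :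
    (x * (z * x * z)) * (w * (z * (x * z * x)) * w) = δ := by
  have a1 : z * w * z = w * q := by rw [q1, ← mul_assoc w w, hw, one_mul]
  have a2 : x * w * x = v * w := by rw [hvw, v2, ← mul_assoc w w, hw, one_mul]
  have a3 : w * q * z = z * w := by rw [← a1, mul_assoc, hz, mul_one]
  have a4 : z * v * z = v * δ := by rw [δ1, ← mul_assoc v v, hv, one_mul]
  have a5 : w * x * w = x * v := by rw [v1, ← mul_assoc x x, hx, one_mul]
  calc (x * (z * x * z)) * (w * (z * (x * z * x)) * w)
      = x * z * x * (z * w * z) * x * z * x * w := by group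
    _ = x * z * x * (w * q) * x * z * x * w := by rw [a1]
    _ = x * z * x * w * (q * x) * z * x * w := by group
    _ = x * z * x * w * (x * q) * z * x * w := by rw [hqx]
    _ = x * z * (x * w * x) * q * z * x * w := by group
    _ = x * z * (v * w) * q * z * x * w := by rw [a2]
    _ = x * z * v * (w * q * z) * x * w := by group
    _ = x * z * v * (z * w) * x * w := by rw [a3]
    _ = x * (z * v * z) * (w * x * w) := by group
    _ = x * (v * δ) * (x * v) := by rw [a4, a5]
    _ = x * v * (δ * x) * v := by group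
    _ = x * v * (x * δ) * v := by rw [hδx]
    _ = x * (v * x) * (δ * v) := by group
    _ = x * (x * v) * (v * δ) := by rw [hvx, hδv]
    _ = (x * x) * (v * v) * δ := by group
    _ = δ := by rw [hx, hv, one_mul, one_mul]

/-- **The commutators of `W_d` lie in `E(d)`.** -/
theorem all_deep [Finite G] (h : IsRootInvolutionSet D) (hc : IsConnectedSet (OddAdj D) D)
    (hES : ∀ d ∈ D, ∃ ES : Subgroup G, ∀ x, x ∈ ES ↔ x = 1 ∨ (x ∈ D ∧ SimR D x d))
    {d : G} (hd : d ∈ D) :
    ∀ w ∈ WSet D d, ∀ y ∈ WSet D d, ¬ Commute w y → SimR D (y * (w * y * w)) d := by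
  classical
  by_contra hcon
  push Not at hcon
  obtain ⟨w0, hw0, y0, hy0, hwy0, hns0⟩ := hcon
  set S : Set G := {w | w ∈ WSet D d ∧ ∃ y ∈ WSet D d, ¬ Commute w y ∧
    ¬ SimR D (y * (w * y * w)) d} with hS
  have hnil : Group.IsNilpotent (Subgroup.closure (WSet D d) : Subgroup G) :=
    (WSet_isPGroup h d).isNilpotent
  obtain ⟨w1, hw1S, hw1⟩ := exists_deepest (Δ := WSet D d) (S := S) (fun w hw => hw.1)
    ⟨w0, hw0, y0, hy0, hwy0, hns0⟩ (fun h1 => ne_one_of_mem h h1.1.1 rfl) hnil
  have hw1W := hw1S.1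
  have hw1D := hw1W.1
  have hww1 := sq_of_mem h hw1D
  have hD2 : Deep2 D d w1 := by
    refine ⟨hw1W, ?_⟩
    intro y hy hny x hx hnx
    by_contra hns
    apply hw1 y hy
    have hyy := sq_of_mem h hy.1
    have h4 := WSet_order_four h hw1W hy hny
    have e1 : ⁅w1, y⁆ = y * (w1 * y * w1) := by
      rw [commutatorElement_def, inv_of_sq hww1, inv_of_sq hyy,
        ← comm_symm hww1 hyy h4]
      group
    rw [e1]
    refine ⟨?_, x, hx, hnx, hns⟩
    exact WSet_comm h hy hw1W (fun hh => hny hh.symm)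
  obtain ⟨x0, hx0W, hnc0, hns⟩ := hw1S.2
  set v : G := x0 * (w1 * x0 * w1) with hv
  have hvW : v ∈ WSet D d := WSet_comm h hx0W hw1W (fun hh => hnc0 hh.symm)
  have hvD := hvW.1
  have hvv := sq_of_mem h hvD
  have hdeep : Deep D d v := ⟨hvW, hns, fun x hx hnx => hD2.2 x0 hx0W hnc0 x hx hnx⟩
  obtain ⟨e, he, hev, hed⟩ := exists_opp_not_opp h hc hvD hd hns
  have hee := sq_of_mem h he
  -- adjust `x`
  obtain ⟨x, hxW, hnc1, hvx, hex⟩ : ∃ x ∈ WSet D d, ¬ Commute w1 x ∧ v = x * (w1 * x * w1) ∧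
      Opp e x := by
    have hxx := sq_of_mem h hx0W.1
    have h4 := WSet_order_four h hx0W hw1W (fun hh => hnc0 hh.symm)
    have c1 : Commute x0 (w1 * x0 * w1) := commute_of_order_four hxx hww1 h4
    have e1 : x0 * v = w1 * x0 * w1 := by rw [hv, ← mul_assoc x0 x0, hxx, one_mul]
    have h5 : w1 * x0 * w1 ∈ WSet D d := WSet_conj_comm h hx0W hw1D hw1W.2.1
    rcases opp_or_opp_of_line h hx0W.1 hvD ((Commute.refl x0).mul_right c1)
      (by rw [e1]; exact h5.1) he hev with h6 | h6
    · exact ⟨x0, hx0W, hnc0, hv, h6⟩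
    · rw [e1] at h6
      refine ⟨w1 * x0 * w1, h5, ?_, ?_, h6⟩
      · intro hh
        apply hnc0
        have h7 := hh.eq
        show w1 * x0 = x0 * w1
        calc w1 * x0 = (w1 * x0) * (w1 * w1) := by rw [hww1, mul_one]
          _ = (w1 * x0 * w1) * w1 := by group
          _ = w1 * (w1 * x0 * w1) := by rw [h7]
          _ = (w1 * w1) * x0 * w1 := by group
          _ = x0 * w1 := by rw [hww1, one_mul]
      · rw [hv, c1.eq]
        calc w1 * x0 * w1 * x0 = w1 * x0 * w1 * (1 * x0 * 1) := by group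
          _ = w1 * x0 * w1 * ((w1 * w1) * x0 * (w1 * w1)) := by rw [hww1]
          _ = w1 * x0 * w1 * (w1 * (w1 * x0 * w1) * w1) := by group
  have hxD := hxW.1
  have hxx := sq_of_mem h hxD
  have hxw4 : orderOf (x * w1) = 4 := WSet_order_four h hxW hw1W (fun hh => hnc1 hh.symm)
  -- adjust `w1`
  obtain ⟨w, hwW, hwD2, hnc, hvxw, hew⟩ : ∃ w ∈ WSet D d, Deep2 D d w ∧ ¬ Commute w x ∧
      v = x * (w * x * w) ∧ Opp e w := by
    have hv2 : v = w1 * (x * w1 * x) := by rw [hvx]; exact comm_symm hxx hww1 hxw4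
    have c1 : Commute w1 (x * w1 * x) := by
      refine commute_of_order_four hww1 hxx ?_
      rw [orderOf_mul_comm' hww1 hxx]; exact hxw4
    have e1 : w1 * v = x * w1 * x := by rw [hv2, ← mul_assoc w1 w1, hww1, one_mul]
    have h5 : x * w1 * x ∈ WSet D d := WSet_conj_comm h hw1W hxD hxW.2.1
    rcases opp_or_opp_of_line h hw1D hvD (by rw [hv2]; exact (Commute.refl w1).mul_right c1)
      (by rw [e1]; exact h5.1) he hev with h6 | h6
    · exact ⟨w1, hw1W, hD2, hnc1, hvx, h6⟩
    · rw [e1] at h6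
      refine ⟨x * w1 * x, h5, ?_, ?_, ?_, h6⟩
      · have h7 := deep2_conj h hD2 x
        rw [inv_of_sq hxx, hxW.2.1.eq, mul_assoc d, hxx, mul_one] at h7
        exact h7
      · intro hh
        apply hnc1
        have h7 := hh.eq
        show w1 * x = x * w1
        calc w1 * x = (x * x) * (w1 * x) := by rw [hxx, one_mul]
          _ = x * (x * w1 * x) := by group
          _ = (x * w1 * x) * x := by rw [h7]
          _ = x * w1 * (x * x) := by group
          _ = x * w1 := by rw [hxx, mul_one]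
      · have e2 : (x * w1 * x) * x * (x * w1 * x) = x * w1 * x * w1 * x := by
          calc (x * w1 * x) * x * (x * w1 * x) = x * w1 * (x * x) * x * w1 * x := by group
            _ = _ := by rw [hxx, mul_one]
        rw [e2]
        calc v = w1 * (x * w1 * x) := hv2
          _ = (x * x) * (w1 * x * w1 * x) := by rw [hxx, one_mul]; group
          _ = x * (x * w1 * x * w1 * x) := by group
  have hwD := hwW.1
  have hww := sq_of_mem h hwD
  have hxw4' : orderOf (x * w) = 4 := WSet_order_four h hxW hwW (fun hh => hnc hh.symm)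
  have hvwx : v = w * (x * w * x) := by rw [hvxw]; exact comm_symm hxx hww hxw4'
  -- the classes attached to `e`
  obtain ⟨ES, hES'⟩ := hES d hd
  obtain ⟨z, hzD, hzW, hze, hP1, hP2, -⟩ := deep_pair h hc hd hES' hdeep he hev hed
  have key := fun (a : G) (ha : a ∈ D) (hs : SimR D a d) => comm_class h hc hd hvW he hev hed ha hs
  have hW : ∀ a ∈ D, SimR D a d → a * (e * a * e) ∈ WSet D d := fun a ha hs =>
    (key a ha hs).2.2.2.1
  have hzz := sq_of_mem h hzD
  have nx : ∀ a ∈ D, SimR D a d → x * a ∉ D := fun a ha hsa =>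
    bad_mem h hc hES hd he hzW hze hP1 hP2 hW hxW hex
      ⟨w, hwW, fun hh => hnc hh.symm, by rw [← hvwx]; exact hns⟩ ha hsa
  have nw : ∀ a ∈ D, SimR D a d → w * a ∉ D := fun a ha hsa =>
    bad_mem h hc hES hd he hzW hze hP1 hP2 hW hwW hew
      ⟨x, hxW, hnc, by rw [← hvxw]; exact hns⟩ ha hsa
  obtain ⟨a0, ha0, hsa0, hza0⟩ := hP1 z hzD (SimR.refl D z)
  have hnz : ∀ v' ∈ D, Opp e v' → ¬ Commute z v' := by
    intro v' hv' hev'
    rw [hza0]
    exact (key a0 ha0 hsa0).2.2.2.2.2 v' hv' hev'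
  have nzx := hnz x hxD hex
  have nzw := hnz w hwD hew
  have nzv := hnz v hvD hev
  have hzw4 : orderOf (z * w) = 4 := WSet_order_four h hzW hwW nzw
  have hzx4 : orderOf (z * x) = 4 := WSet_order_four h hzW hxW nzx
  have hzv4 : orderOf (z * v) = 4 := WSet_order_four h hzW hvW nzv
  -- `q = [w, z]` commutes with `x`
  set q : G := w * (z * w * z) with hq
  have hq2 : q = z * (w * z * w) := (comm_symm hzz hww hzw4).symm
  have hqW : q ∈ WSet D d := by rw [hq2]; exact WSet_comm h hzW hwW nzw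
  have hqq := sq_of_mem h hqW.1
  have hqx : Commute q x := by
    by_contra hn
    have h1 := hwD2.2 z hzW (fun hh => nzw hh.symm) x hxW (by rw [← hq2]; exact hn)
    rw [← hq2] at h1
    have h2 : x * (q * x * q) ∈ WSet D d := WSet_comm h hxW hqW (fun hh => hn hh.symm)
    refine nx _ h2.1 h1 ?_
    rw [← mul_assoc x x, hxx, one_mul]
    exact conj_mem' h hxD hqW.1
  -- `δ = [v, z]` is in the class of `d`
  set δ : G := v * (z * v * z) with hδ
  have hδ2 : δ = z * (v * z * v) := (comm_symm hzz hvv hzv4).symm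
  have hδW : δ ∈ WSet D d := by rw [hδ2]; exact WSet_comm h hzW hvW nzv
  have hδD := hδW.1
  have hδs : SimR D δ d := by
    have h1 := hdeep.2.2 z hzW (fun hh => nzv hh.symm)
    rw [hδ2]; exact h1
  have cδx : Commute x δ := WSet_commute_sim h hc hd hδD hδs hxW
  have cδv : Commute v δ := WSet_commute_sim h hc hd hδD hδs hvW
  have cδw : Commute w δ := WSet_commute_sim h hc hd hδD hδs hwW
  have cvx : Commute v x := by
    rw [hvxw]
    exact ((Commute.refl x).mul_right (commute_of_order_four hxx hww hxw4')).symm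
  have cvw : Commute v w := by
    rw [hvwx]
    have h4 : orderOf (w * x) = 4 := by rw [orderOf_mul_comm' hww hxx]; exact hxw4'
    exact ((Commute.refl w).mul_right (commute_of_order_four hww hxx h4)).symm
  have hid := hall_witt_inv hxx hww hzz hvv hvxw hvwx hq hδ hqx.eq cδx.symm.eq cvx.eq cvw.eq
    cδv.symm.eq
  set p : G := x * (z * x * z) with hp
  have hp2 : p = z * (x * z * x) := (comm_symm hzz hxx hzx4).symm
  rw [← hp2] at hid
  have hpD : p ∈ D := by rw [hp2]; exact (WSet_comm h hzW hxW nzx).1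
  refine nw δ hδD hδs ?_
  have e5 : w * δ = p * w * p := by
    rw [cδw.eq, ← hid]
    calc p * (w * p * w) * w = p * w * p * (w * w) := by group
      _ = p * w * p := by rw [hww, mul_one]
  rw [e5]
  exact conj_mem' h hwD hpD

end Cfsg.Agent.H737
end
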